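import Mathlib.LinearAlgebra.Matrix.Determinant.Basic
import Mathlib.GroupTheory.GroupAction.Quotient
import Mathlib.GroupTheory.OrderOfElement
import Mathlib.Tactic.FinCases
import Cfsg.Agent.McLUnit.Data

/-! The permutation group on 112 points and the matrix identities behind it. -/

set_option autoImplicit false
set_option maxRecDepth 10000

namespace CfsgLib.McLUnit

/-- The first generator. -/
def gR : Equiv.Perm (Fin 112) where
  toFun := permR
  invFun := permRInv
  left_inv := by decide +kernel
  right_inv := by decide +kernel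

/-- The second generator. -/
def gH : Equiv.Perm (Fin 112) where
  toFun := permH
  invFun := permHInv
  left_inv := by decide +kernel
  right_inv := by decide +kernel

/-- The group of the 112 points. -/
def farGroup : Subgroup (Equiv.Perm (Fin 112)) := Subgroup.closure {gR, gH}

theorem gR_mem : gR ∈ farGroup := Subgroup.subset_closure (by simp)

theorem gH_mem : gH ∈ farGroup := Subgroup.subset_closure (by simp)

/-- A word in the generators. -/
def wordPerm : List Bool → Equiv.Perm (Fin 112)
  | [] => 1
  | b :: w => (if b then gH else gR) * wordPerm w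

theorem wordPerm_mem : ∀ w, wordPerm w ∈ farGroup
  | [] => one_mem _
  | b :: w => by
    rw [wordPerm]
    refine mul_mem ?_ (wordPerm_mem w)
    cases b
    · exact gR_mem
    · exact gH_mem

theorem tree_ok : ∀ i : Fin 112, i ≠ 0 → (treeStep i).1 < i ∧
    (if (treeStep i).2 then gH else gR) (treeStep i).1 = i := by decide +kernel

theorem exists_to (i : Fin 112) : ∃ g ∈ farGroup, g 0 = i := by
  induction i using WellFoundedLT.induction with
  | _ i ih =>
    by_cases h0 : i = 0
    · exact ⟨1, one_mem _, h0.symm⟩
    · obtain ⟨hlt, he⟩ := tree_ok i h0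
      obtain ⟨g, hg, hg0⟩ := ih _ hlt
      refine ⟨(if (treeStep i).2 then gH else gR) * g, mul_mem ?_ hg, ?_⟩
      · split_ifs
        · exact gH_mem
        · exact gR_mem
      · rw [Equiv.Perm.mul_apply, hg0, he]

theorem word_facts : wordPerm wordA 0 = 0 ∧ wordPerm wordB 0 = 0 ∧ wordPerm wordC 0 = 0 ∧
    wordPerm wordC (orbPt 0) = orbPt 0 ∧ wordPerm wordC ^ 5 = 1 ∧ wordPerm wordC ≠ 1 := by
  decide +kernel

theorem orb_tree_ok : ∀ i : Fin 81, i ≠ 0 → (orbStep i).1 < i ∧
    (if (orbStep i).2 then wordPerm wordB else wordPerm wordA) (orbPt (orbStep i).1) = orbPt i := by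
  decide +kernel

theorem orbPt_injective : ∀ i j : Fin 81, orbPt i = orbPt j → i = j := by decide +kernel

theorem farGroup_large : 45360 ≤ Nat.card farGroup := by
  obtain ⟨a0, b0, c0, c1, c5, cne⟩ := word_facts
  let K := MulAction.stabilizer farGroup (0 : Fin 112)
  have hcard : Nat.card farGroup = 112 * Nat.card K := by
    have horb : MulAction.orbit farGroup (0 : Fin 112) = Set.univ :=
      Set.eq_univ_of_forall fun i => by
        obtain ⟨g, hg, h⟩ := exists_to i
        exact ⟨⟨g, hg⟩, h⟩
    rw [← Subgroup.index_mul_card K, MulAction.index_stabilizer, horb, Set.ncard_univ,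
      Nat.card_eq_fintype_card, Fintype.card_fin]
  have hmem : ∀ i : Fin 81, ∃ g : K, g • orbPt 0 = orbPt i := by
    intro i
    induction i using WellFoundedLT.induction with
    | _ i ih =>
      by_cases h0 : i = 0
      · exact ⟨1, by rw [h0, one_smul]⟩
      · obtain ⟨hlt, he⟩ := orb_tree_ok i h0
        obtain ⟨g, hg⟩ := ih _ hlt
        have hs : (if (orbStep i).2 then wordPerm wordB else wordPerm wordA) (0 : Fin 112) = 0 := by
          split_ifs
          · exact b0
          · exact a0
        have hm : (if (orbStep i).2 then wordPerm wordB else wordPerm wordA) ∈ farGroup := by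
          split_ifs <;> exact wordPerm_mem _
        let k : K := ⟨⟨_, hm⟩, hs⟩
        refine ⟨k * g, ?_⟩
        rw [mul_smul, hg]
        exact he
  have h81 : 81 ≤ (MulAction.orbit K (orbPt 0)).ncard := by
    have h : (Set.range orbPt).ncard = 81 := by
      rw [Set.ncard_range_of_injective (fun i j => orbPt_injective i j), Nat.card_eq_fintype_card,
        Fintype.card_fin]
    refine h.symm.le.trans (Set.ncard_le_ncard ?_ (Set.toFinite _))
    rintro _ ⟨i, rfl⟩
    exact hmem i
  let c : farGroup := ⟨wordPerm wordC, wordPerm_mem _⟩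
  have hc : c ∈ K := c0
  have h5 : 5 ≤ Nat.card (MulAction.stabilizer K (orbPt 0)) := by
    have : Fact (Nat.Prime 5) := ⟨Nat.prime_five⟩
    let d : MulAction.stabilizer K (orbPt 0) := ⟨⟨c, hc⟩, c1⟩
    have hd : orderOf d = 5 := by
      refine orderOf_eq_prime (Subtype.ext (Subtype.ext (Subtype.ext ?_))) fun h => cne ?_
      · exact c5
      · exact congrArg (fun z => z.1.1.1) h
    exact hd ▸ orderOf_le_card
  have h := Subgroup.index_mul_card (MulAction.stabilizer K (orbPt 0))
  rw [MulAction.index_stabilizer] at h
  rw [hcard, ← h]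
  calc 45360 = 112 * (81 * 5) := by norm_num
    _ ≤ _ := Nat.mul_le_mul_left _ (Nat.mul_le_mul h81 h5)

theorem matR_det : matR.det = 1 := by decide +kernel

theorem matH_det : matH.det = 1 := by decide +kernel

theorem matR_unitary : ∀ i j : Fin 4,
    ∑ k, matR k i * (matR k j * matR k j * matR k j) = if i = j then 1 else 0 := by
  decide +kernel

theorem matH_unitary : ∀ i j : Fin 4,
    ∑ k, matH k i * (matH k j * matH k j * matH k j) = if i = j then 1 else 0 := by
  decide +kernel

theorem certR_ok : ∀ j : Fin 112, matR * lineBasis j = lineBasis (gR j) * (certR j).1 ∧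
    (certR j).1 * (certR j).2 = 1 := by decide +kernel

theorem certH_ok : ∀ j : Fin 112, matH * lineBasis j = lineBasis (gH j) * (certH j).1 ∧
    (certH j).1 * (certH j).2 = 1 := by decide +kernel

theorem separated_ok : ∀ j : Fin 112, j ≠ 0 →
    Matrix.vecMul (sepVec j) (lineBasis 0) = 0 ∧ Matrix.vecMul (sepVec j) (lineBasis j) ≠ 0 := by
  decide +kernel

end CfsgLib.McLUnit
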