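import Mathlib
import Cfsg.Agent.McLUnit.Check
import Cfsg.Agent.LeechTriples.McLTransfer
import Cfsg.Agent.LeechTriples.Perm
import Cfsg.Agent.Leech.McLSimple

/-! The standard configuration: the two elements moving the 112 points as prescribed. -/

set_option autoImplicit false
set_option linter.style.haveILetI false
set_option maxRecDepth 10000

namespace CfsgLib.McLUnit

open Cfsg CfsgLib.Leech CfsgLib.LeechTriples
open scoped Pointwise

/-- A vector given by its list of coordinates. -/
def vecList (l : List ℤ) : GolayPt → ℤ := fun p => l.getD (ptIdx p) 0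

/-- The vector of squared length 48. -/
def u0 : leechLattice :=
  ⟨vecList (List.replicate 23 1 ++ [5]), mem_leech_of_check (by decide +kernel)⟩

/-- One summand. -/
abbrev v0 : leechLattice := Spor.leechU

/-- The point. -/
def x0 : leechLattice := ⟨vecList xList, mem_leech_of_check (by decide +kernel)⟩

theorem far_check : ∀ i : Fin 112, CheckLeech (vecList (ptFar i)) := by decide +kernel

/-- A point with product 8. -/
def farPt (i : Fin 112) : leechLattice := ⟨vecList (ptFar i), mem_leech_of_check (far_check i)⟩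

theorem base_facts : nrm u0 = 48 ∧ nrm v0 = 32 ∧ ip u0 v0 = 24 ∧ nrm x0 = 32 ∧ ip u0 x0 = 24 ∧
    ip v0 x0 = 16 := by
  simp only [nrm, ip]
  decide +kernel

theorem far_facts : ∀ i : Fin 112, nrm (farPt i) = 32 ∧ ip u0 (farPt i) = 24 ∧
    ip v0 (farPt i) = 16 ∧ ip x0 (farPt i) = 8 := by
  simp only [nrm, ip]
  decide +kernel

theorem farPt_injective : Function.Injective farPt := by
  have h : ∀ i j : Fin 112, ptFar i = ptFar j → i = j := by decide +kernel
  have h' : ∀ i j : Fin 112, vecList (ptFar i) = vecList (ptFar j) → ptFar i = ptFar j := by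
    decide +kernel
  exact fun i j e => h i j (h' i j (congrArg Subtype.val e))

theorem mem_base : x0 ∈ mclSet u0 v0 := by
  obtain ⟨f1, f2, f3, f4, f5, f6⟩ := base_facts
  exact (mem_mclSet f1).2 ⟨f4, f5, f6⟩

theorem mem_far {y : leechLattice} (hy : y ∈ mclSet u0 v0) (h : ip x0 y = 8) :
    ∃ i, farPt i = y := by
  obtain ⟨f1, f2, f3, f4, f5, f6⟩ := base_facts
  have h112 := (mclSet_rank3 f1 f2 f3 mem_base).1
  have hH : Set.range farPt = {y | y ∈ mclSet u0 v0 ∧ ip x0 y = 8} := by
    refine Set.eq_of_subset_of_ncard_le ?_ (le_of_eq ?_) ?_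
    · rintro y ⟨i, rfl⟩
      obtain ⟨a, b, c, d⟩ := far_facts i
      exact ⟨(mem_mclSet f1).2 ⟨a, b, c⟩, d⟩
    · rw [h112, Set.ncard_range_of_injective farPt_injective, Nat.card_eq_fintype_card,
        Fintype.card_fin]
    · exact Set.finite_of_ncard_ne_zero (by rw [h112]; norm_num)
  exact hH.ge ⟨hy, h⟩

/-- The joint stabiliser. -/
abbrev pointStab (u v x : leechLattice) : Subgroup Co0 :=
  MulAction.stabilizer Co0 u ⊓ MulAction.stabilizer Co0 v ⊓ MulAction.stabilizer Co0 x

theorem exists_image (g : pointStab u0 v0 x0) (i : Fin 112) :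
    ∃ j, farPt j = g.1 • farPt i := by
  obtain ⟨⟨hu, hv⟩, hx⟩ := g.2
  obtain ⟨h1, h2, h3, h4⟩ := far_facts i
  have key : ∀ (w : leechLattice) (c : ℤ), g.1 • w = w → ip w (farPt i) = c →
      ip w (g.1 • farPt i) = c := fun w c hw hc => by
    conv_lhs => rw [← hw]
    rw [ip_smul, hc]
  exact mem_far ((mem_mclSet base_facts.1).2
    ⟨(nrm_smul g.1 _).trans h1, key _ _ hu h2, key _ _ hv h3⟩) (key _ _ hx h4)

/-- The image of a point. -/
noncomputable def imgFun (g : pointStab u0 v0 x0) (i : Fin 112) : Fin 112 :=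
  (exists_image g i).choose

theorem imgFun_spec (g : pointStab u0 v0 x0) (i : Fin 112) : farPt (imgFun g i) = g.1 • farPt i :=
  (exists_image g i).choose_spec

/-- The action on the 112 points. -/
noncomputable def farHom : pointStab u0 v0 x0 →* Equiv.Perm (Fin 112) where
  toFun g :=
    { toFun := imgFun g
      invFun := imgFun g⁻¹
      left_inv := fun i => farPt_injective (by
        rw [imgFun_spec, imgFun_spec, Subgroup.coe_inv, inv_smul_smul])
      right_inv := fun i => farPt_injective (by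
        rw [imgFun_spec, imgFun_spec, Subgroup.coe_inv, smul_inv_smul]) }
  map_one' := Equiv.ext fun i => farPt_injective (by
    rw [Equiv.Perm.one_apply]
    show farPt (imgFun 1 i) = _
    rw [imgFun_spec, Subgroup.coe_one, one_smul])
  map_mul' g h := Equiv.ext fun i => farPt_injective (by
    show farPt (imgFun (g * h) i) = farPt (imgFun g (imgFun h i))
    rw [imgFun_spec, imgFun_spec, imgFun_spec, Subgroup.coe_mul, mul_smul])

theorem farHom_eq {g : pointStab u0 v0 x0} {p : Equiv.Perm (Fin 112)}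
    (h : ∀ i, g.1 • farPt i = farPt (p i)) : farHom g = p :=
  Equiv.ext fun i => farPt_injective ((imgFun_spec g i).trans (h i))

/-! ### The two elements -/

/-- A permutation given by a table and its inverse table. -/
def tabPerm (t t' : List ℕ) (h1 : ∀ p : GolayPt, idxPt (t'.getD (ptIdx (idxPt (t.getD (ptIdx p) 0))) 0) = p)
    (h2 : ∀ p : GolayPt, idxPt (t.getD (ptIdx (idxPt (t'.getD (ptIdx p) 0))) 0) = p) :
    Equiv.Perm GolayPt where
  toFun p := idxPt (t.getD (ptIdx p) 0)
  invFun p := idxPt (t'.getD (ptIdx p) 0)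
  left_inv := h1
  right_inv := h2

theorem perm_mem_of_check (σ : Equiv.Perm GolayPt)
    (h : ∀ t s : ZMod 23, (∑ p, qrWord s p * qrWord t (σ.symm p)) = (0 : ZMod 2) ∧
      (∑ p, qrWord t (σ.symm p)) = (0 : ZMod 2)) : σ ∈ M24 := by
  refine perm_mem_M24 _ fun t => (mem_code_iff _).2 ⟨fun s => ?_, ?_⟩
  · rw [dot₂_apply]; exact (h t s).1
  · rw [dot₂_apply]; simp only [Pi.one_apply, one_mul]; exact (h t 0).2

def pA : Equiv.Perm GolayPt := tabPerm tabA tabAInv (by decide +kernel) (by decide +kernel)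
def pB : Equiv.Perm GolayPt := tabPerm tabB tabBInv (by decide +kernel) (by decide +kernel)
def pC : Equiv.Perm GolayPt := tabPerm tabC tabCInv (by decide +kernel) (by decide +kernel)
def pR : Equiv.Perm GolayPt := tabPerm tabR tabRInv (by decide +kernel) (by decide +kernel)

theorem pA_mem : pA ∈ M24 := perm_mem_of_check _ (by decide +kernel)
theorem pB_mem : pB ∈ M24 := perm_mem_of_check _ (by decide +kernel)
theorem pC_mem : pC ∈ M24 := perm_mem_of_check _ (by decide +kernel)
theorem pR_mem : pR ∈ M24 := perm_mem_of_check _ (by decide +kernel)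

/-- The permutation generator. -/
def eR : Co0 := permHom ⟨pR, pR_mem⟩

/-- The generator moving the frame. -/
def eH : Co0 := permHom ⟨pA, pA_mem⟩ * xi * permHom ⟨pB, pB_mem⟩ * xi * permHom ⟨pC, pC_mem⟩

theorem gen_fix : ((eR • u0 : leechLattice) : GolayPt → ℤ) = (u0 : GolayPt → ℤ) ∧
    ((eR • v0 : leechLattice) : GolayPt → ℤ) = (v0 : GolayPt → ℤ) ∧
    ((eR • x0 : leechLattice) : GolayPt → ℤ) = (x0 : GolayPt → ℤ) ∧
    ((eH • u0 : leechLattice) : GolayPt → ℤ) = (u0 : GolayPt → ℤ) ∧
    ((eH • v0 : leechLattice) : GolayPt → ℤ) = (v0 : GolayPt → ℤ) ∧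
    ((eH • x0 : leechLattice) : GolayPt → ℤ) = (x0 : GolayPt → ℤ) := by
  decide +kernel

theorem gen_moves : ∀ i : Fin 112,
    ((eR • farPt i : leechLattice) : GolayPt → ℤ) = (farPt (gR i) : GolayPt → ℤ) ∧
    ((eH • farPt i : leechLattice) : GolayPt → ℤ) = (farPt (gH i) : GolayPt → ℤ) := by
  decide +kernel

theorem farGroup_le_range : farGroup ≤ farHom.range := by
  obtain ⟨a1, a2, a3, b1, b2, b3⟩ := gen_fix
  refine (Subgroup.closure_le _).2 ?_
  rintro _ (rfl | rfl)
  · exact ⟨⟨eR, ⟨Subtype.ext a1, Subtype.ext a2⟩, Subtype.ext a3⟩,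
      farHom_eq fun i => Subtype.ext (gen_moves i).1⟩
  · exact ⟨⟨eH, ⟨Subtype.ext b1, Subtype.ext b2⟩, Subtype.ext b3⟩,
      farHom_eq fun i => Subtype.ext (gen_moves i).2⟩

/-! ### The size of the stabiliser -/

theorem card_pointStab {u v x : leechLattice} (hu : nrm u = 48) (hv : nrm v = 32)
    (hd : ip u v = 24) (hx : x ∈ mclSet u v) : Nat.card (pointStab u v x) * 275 = 898128000 := by
  have hw : nrm (u - v) = 32 := by rw [nrm_sub, hu, hv, hd]; norm_num
  have hvw : ip v (u - v) = -8 := by rw [ip_sub_right, ip_self, hv, ip_comm, hd]; norm_num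
  have hfix : ∀ g : Co0, g ∈ pairStab v (u - v) → g • u = u ∧ g • v = v := by
    intro g hg
    have e1 : g • v = v := hg.1
    have e2 : g • (u - v) = u - v := hg.2
    rw [co0_map_sub, e1, sub_left_inj] at e2
    exact ⟨e2, e1⟩
  have hequiv : Nat.card (MulAction.stabilizer (pairStab v (u - v)) x) =
      Nat.card (pointStab u v x) := by
    refine Nat.card_congr
      { toFun := fun g => ⟨g.1.1, ⟨(hfix g.1.1 g.1.2).1, (hfix g.1.1 g.1.2).2⟩, g.2⟩
        invFun := fun g => ⟨⟨g.1, g.2.1.2, ?_⟩, g.2.2⟩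
        left_inv := fun _ => rfl
        right_inv := fun _ => rfl }
    show g.1 • (u - v) = u - v
    rw [co0_map_sub, show g.1 • u = u from g.2.1.1, show g.1 • v = v from g.2.1.2]
  have horb : MulAction.orbit (pairStab v (u - v)) x = mclSet u v := by
    ext y
    constructor
    · rintro ⟨g, rfl⟩
      obtain ⟨x1, x2, x3⟩ := (mem_mclSet hu).1 hx
      obtain ⟨e1, e2⟩ := hfix g.1 g.2
      refine (mem_mclSet hu).2 ⟨(nrm_smul g.1 x).trans x1, ?_, ?_⟩
      · show ip u (g.1 • x) = 24
        exact (congrArg (fun t => ip t (g.1 • x)) e1).symm.trans ((ip_smul g.1 u x).trans x2)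
      · show ip v (g.1 • x) = 16
        exact (congrArg (fun t => ip t (g.1 • x)) e2).symm.trans ((ip_smul g.1 v x).trans x3)
    · intro hy
      obtain ⟨g, g1, g2, g3⟩ := mclSet_transitive hu hv hd hx hy
      exact ⟨⟨g, g2, show g • (u - v) = u - v by rw [co0_map_sub, g1, g2]⟩, g3⟩
  have h := Subgroup.index_mul_card (MulAction.stabilizer (pairStab v (u - v)) x)
  rw [MulAction.index_stabilizer, horb, ncard_mclSet hu hv hd, hequiv, card_mcl hv hw hvw] at h
  rw [mul_comm]
  exact h

theorem pointStab_equiv (hΓ : Nat.card farGroup = 3265920) :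
    Nonempty (pointStab u0 v0 x0 ≃* farGroup) := by
  obtain ⟨f1, f2, f3, -⟩ := base_facts
  have hK := card_pointStab f1 f2 f3 mem_base
  have hK' : Nat.card (pointStab u0 v0 x0) = 3265920 := by omega
  haveI : Finite (pointStab u0 v0 x0) := Nat.finite_of_card_ne_zero (by omega)
  have hr : farHom.range = farGroup :=
    (Subgroup.eq_of_le_of_card_ge farGroup_le_range (by
      rw [hΓ, ← hK']; exact Nat.le_of_dvd Nat.card_pos (Subgroup.card_range_dvd farHom))).symm
  have hbij : Function.Bijective farHom.rangeRestrict :=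
    (Nat.bijective_iff_surjective_and_card _).2 ⟨farHom.rangeRestrict_surjective, by
      rw [hK', hr, hΓ]⟩
  exact ⟨(MulEquiv.ofBijective _ hbij).trans (MulEquiv.subgroupCongr hr)⟩

end CfsgLib.McLUnit
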