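import Mathlib
import Cfsg.Agent.McLUnit.Standard
import Cfsg.Agent.McLUnit.Unitary

/-! Transfer to any configuration. -/

set_option autoImplicit false
set_option linter.style.haveILetI false

namespace CfsgLib.McLUnit

open Cfsg CfsgLib.Leech CfsgLib.LeechTriples

/-- The point stabiliser in `McL` is `PSU₄(3)`. -/
theorem mcl_pointStab (u v x : leechLattice) (hu : nrm u = 48) (hv : nrm v = 32)
    (hd : ip u v = 24) (hx : x ∈ mclSet u v) (F : Type) [Field F] [Fintype F]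
    (hF : Fintype.card F = 9) : Nonempty (pointStab u v x ≃* PSU 4 F 3) := by
  obtain ⟨hΓ, ⟨eΓ⟩⟩ := psu_far (F := F) hF
  obtain ⟨e0⟩ := pointStab_equiv hΓ
  obtain ⟨f1, f2, f3, -⟩ := base_facts
  obtain ⟨g, g1, g2, g3⟩ :=
    exists_mclTriple (triple_of_mem hu hv hd hx) (triple_of_mem f1 f2 f3 mem_base)
  have e : pointStab u v x ≃* pointStab u0 v0 x0 :=
    { toFun := fun a => ⟨g * a.1 * g⁻¹, by
        obtain ⟨⟨a1, a2⟩, a3⟩ := a.2
        refine ⟨⟨?_, ?_⟩, ?_⟩ <;> show (g * a.1 * g⁻¹) • _ = _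
        · rw [← g3, mul_smul, mul_smul, inv_smul_smul, show a.1 • u = u from a1]
        · rw [← g1, mul_smul, mul_smul, inv_smul_smul, show a.1 • v = v from a2]
        · rw [← g2, mul_smul, mul_smul, inv_smul_smul, show a.1 • x = x from a3]⟩
      invFun := fun a => ⟨g⁻¹ * a.1 * g, by
        obtain ⟨⟨a1, a2⟩, a3⟩ := a.2
        refine ⟨⟨?_, ?_⟩, ?_⟩ <;> show (g⁻¹ * a.1 * g) • _ = _
        · rw [mul_smul, mul_smul, g3, show a.1 • u0 = u0 from a1, ← g3, inv_smul_smul]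
        · rw [mul_smul, mul_smul, g1, show a.1 • v0 = v0 from a2, ← g1, inv_smul_smul]
        · rw [mul_smul, mul_smul, g2, show a.1 • x0 = x0 from a3, ← g2, inv_smul_smul]⟩
      left_inv := fun a => Subtype.ext (show g⁻¹ * (g * a.1 * g⁻¹) * g = a.1 by group)
      right_inv := fun a => Subtype.ext (show g * (g⁻¹ * a.1 * g) * g⁻¹ = a.1 by group)
      map_mul' := fun a b => Subtype.ext
        (show g * (a.1 * b.1) * g⁻¹ = g * a.1 * g⁻¹ * (g * b.1 * g⁻¹) by group) }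
  exact ⟨(e.trans e0).trans eΓ.symm⟩

end CfsgLib.McLUnit
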